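import Cfsg.Agent.H125.Hall.Defs
import Cfsg.Agent.Schreier.Balance
import Cfsg.Agent.H824.ProdLem

/-!
# S2223, C2: group theory and arithmetic (helper272)

* `exists_emb` : a group normalising the quasisimple group `L` and acting faithfully embeds in `Aut(L / Z(L))`;
* `v2_a6` : the 2-part of `|Aut A₆|`;
* `num` : the arithmetic.
-/

set_option autoImplicit false
set_option linter.unusedSectionVars false

namespace Cfsg.Agent.H272.Hall

open Subgroup Cfsg.Agent.Cit Cfsg.Agent.H125.Hall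

section

variable {A : Type*} [Group A] [Finite A] {L : Subgroup A}

theorem exists_emb (hL : Cfsg.IsQuasisimple ↥L) {Q : Subgroup A} (hQ : ∀ a ∈ Q, ∀ x ∈ L, a * x * a⁻¹ ∈ L)
    (hC : ∀ a ∈ Q, (∀ x ∈ L, a * x = x * a) → a = 1) :
    ∃ f : ↥Q →* MulAut (↥L ⧸ Subgroup.center ↥L), Function.Injective f := by
  have hQN : Q ≤ normalizer (L : Set A) := by
    intro a ha
    rw [mem_normalizer_iff]
    intro x
    refine ⟨hQ a ha x, fun hx => ?_⟩
    have h1 := hQ a⁻¹ (inv_mem ha) _ hx
    have h2 : a⁻¹ * (a * x * a⁻¹) * a⁻¹⁻¹ = x := by group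
    rwa [h2] at h1
  refine ⟨(Cfsg.Agent.Schreier.Balance.quoAut ↥L).comp (L.normalizerMonoidHom.comp (Subgroup.inclusion hQN)), ?_⟩
  rw [injective_iff_map_eq_one]
  intro a ha
  have h1 := Cfsg.Agent.Schreier.Balance.eq_one_of_quoAut_eq_one hL.1 ha
  have h2 : (Subgroup.inclusion hQN a) ∈ L.normalizerMonoidHom.ker := h1
  rw [normalizerMonoidHom_ker, mem_subgroupOf] at h2
  apply Subtype.ext
  apply hC a a.2
  intro x hx
  exact (mem_centralizer_iff.1 h2 x hx).symm

theorem isQ_range {Q : Subgroup A} (h : AutQuat.IsQ Q) {B : Type*} [Group B] {f : ↥Q →* B} (hf : Function.Injective f) :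
    AutQuat.IsQ f.range := by
  obtain ⟨n, ⟨e⟩⟩ := h
  exact ⟨n, ⟨(MonoidHom.ofInjective hf).symm.trans e⟩⟩

end

theorem v2_a6 {T : Type} [Group T] (e : T ≃* alternatingGroup (Fin 6)) : v2 T = 5 := by
  unfold v2
  have h1 : Nat.card (MulAut T) = 1440 := by
    rw [← Cfsg.Agent.H824.ProdLem.card_aut_a6]
    exact Nat.card_congr (MulAut.congr e).toEquiv
  rw [h1]
  have h2 : 5 ≤ (1440 : ℕ).factorization 2 :=
    (Nat.prime_two.pow_dvd_iff_le_factorization (by norm_num)).1 (by norm_num)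
  have h3 : ¬ 6 ≤ (1440 : ℕ).factorization 2 := fun h =>
    absurd ((Nat.prime_two.pow_dvd_iff_le_factorization (by norm_num)).2 h) (by norm_num)
  omega

theorem two_fac {m : ℕ} (h : 4 ≤ m) : 1 ≤ (m / 2).factorial.factorization 2 := by
  have h1 : 2 ∣ (m / 2).factorial := Nat.dvd_factorial (by norm_num) (by omega)
  exact (Nat.prime_two.dvd_iff_one_le_factorization (Nat.factorial_ne_zero _)).1 h1

/-- the arithmetic: what remains is `m = 3` -/
theorem num {T : Type} [Group T] {m : ℕ} (h3 : 3 ≤ m) (h4 : m ≠ 4) (hPR : PR m T)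
    (hv : 2 * m - 2 + (m / 2).factorial.factorization 2 ≤ v2 T) (hT : ALSX T) : m = 3 ∧ (Exc7 T ∨ Exc9 T) := by
  have h5 : 4 ≤ m → 1 ≤ (m / 2).factorial.factorization 2 := two_fac
  rcases hT with h | h | h | h
  · exfalso
    obtain ⟨h1, h2, h6, -⟩ := h m hPR
    rcases Nat.lt_or_ge m 6 with h7 | h7
    · have h8 : m = 3 ∨ m = 5 := by omega
      rcases h8 with h8 | h8
      · have := h1 h8
        omega
      · have := h2 h8
        have := h5 (by omega)
        omega
    · have := h6 h7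
      omega
  · refine ⟨?_, Or.inl h⟩
    have h6 := h.1
    by_contra hm
    have := h5 (by omega)
    omega
  · refine ⟨?_, Or.inr h⟩
    obtain ⟨e⟩ := h
    have h6 := v2_a6 e
    by_contra hm
    have := h5 (by omega)
    omega
  · exfalso
    obtain ⟨h6, h7, -⟩ := h
    have h8 := h7 m hPR
    have := h5 (by omega)
    omega

end Cfsg.Agent.H272.Hall
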